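import Cfsg.Agent.H808.TD.Sp

/-!
# `³D₄(q)`: the normaliser of the highest root group has index at most `q ^ 10`
-/

set_option autoImplicit false
set_option linter.unusedSectionVars false

namespace Cfsg.Agent.H808.TD

open CoxeterSystem Cfsg.Agent.ChevalleyStructure.CoxeterGeom Cfsg.Agent.Tits.Roots Cfsg.Agent.Tits.Core
  Cfsg.Agent.Tits.Exchange Cfsg.Agent.Nodes.Reps Cfsg.Agent.Nodes.BNOf Cfsg.Agent.Nodes.StabComb
  Cfsg.Agent.Nodes.Bruhat Cfsg.Agent.Nodes.OppDec Cfsg.Agent.Nodes.LeviDec Cfsg.Agent.Nodes.NormalForm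
open Cfsg.Lie Cfsg.Agent.ChevalleyStructure Cfsg.Agent.Nodes.RGDTwD4 Cfsg.Agent.H35.ExcIdx
open Cfsg.Agent.Nodes.RGDTwGen Cfsg.Agent.Nodes.RGDChev Cfsg.Agent.Nodes.RGDFold
open Cfsg.Agent.ChevalleyStructure.TwistedU Cfsg.Agent.ChevalleyStructure.D4U
open Cfsg.Agent.H934 Cfsg.Agent.H934.RowTwD4

universe u

variable {K : Type u} [Field K] [Fintype K] {q : ℕ} {φ : K →+* K}

/-- the index of the parabolic subgroup -/
theorem index_PJ_le (hq : IsPrimePow q) (hK : Fintype.card K = q ^ 3) (hφ : ∀ x, φ x = x ^ q) :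
    (PJ CoxeterMatrix.G₂.toCoxeterSystem isCartan (T K q) (X φ q) {j | j ∈ ([1] : List (Fin 2))}).index ≤ q ^ 10 := by
  have : Finite (GL chevD4.Idx K) := inferInstance
  obtain ⟨p, hcp⟩ := CharP.exists K
  have hp' : Fact p.Prime := ⟨CharP.char_is_prime K p⟩
  have h2 : 2 ≤ q := hq.two_le
  obtain ⟨r, f, hr, hf, hrf⟩ := hq
  have hr' : r.Prime := hr.nat_prime
  have hpr : p = r := by
    obtain ⟨n, hpp, hn⟩ := FiniteField.card K p
    have h3 : p ∣ r := by
      have h4 : p ∣ Fintype.card K := by rw [hn]; exact dvd_pow_self p n.pos.ne'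
      rw [hK, ← hrf, ← pow_mul] at h4
      exact hpp.dvd_of_dvd_pow h4
    exact (Nat.prime_dvd_prime_iff_eq hpp hr').1 h3
  subst hpr
  have hq' : IsPrimePow q := ⟨p, f, hr, hf, hrf⟩
  have hfin : Finite CoxeterMatrix.G₂.Group := Nodes.RGDFold.finite_W (hp := hp)
    CoxeterMatrix.G₂.toCoxeterSystem isCartan foldData
  have hR := rgd CoxeterMatrix.G₂.toCoxeterSystem hK hφ p
  have hG1 : Nodes.RGDLib.G1 CoxeterMatrix.G₂.toCoxeterSystem isCartan (X φ q) = ⊤ := G1_eq_top _ hK hφ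
  have hGG : GG CoxeterMatrix.G₂.toCoxeterSystem isCartan (T K q) (X φ q) = ⊤ := by
    rw [eq_top_iff, ← hG1]
    exact le_sup_right
  have hc := card_X hφ (by omega) hK
  have hN := card_step hR path1 (y := q ^ 3) (fun i hi => by
    rw [List.mem_singleton] at hi
    rw [hc, hi]
    rfl) (card_nil hR)
  have hT : 1 * Nat.card ↥(T K q) = (q - 1) ^ 2 * (q ^ 2 + q + 1) := by
    rw [one_mul, ← Cfsg.Agent.S1106.result hq' hK]
    exact Nat.card_congr (Subgroup.subgroupOfEquivOfLe inf_le_right).toEquiv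
  have hS : 1 * Nat.card ↥(twistedD4 K q) = p ^ (f * 12) * ((q ^ 2 - 1) * (q ^ 6 - 1) * (q ^ 8 + q ^ 4 + 1)) := by
    rw [one_mul, Cfsg.Agent.S1067.result hq' hK, pow_mul, hrf]
    ring
  have hpq : p ∣ q := by rw [← hrf]; exact dvd_pow_self p hf.ne'
  have hsub : ∀ k, k ≠ 0 → ¬ p ∣ q ^ k - 1 := by
    intro k hk h3
    have h4 : p ∣ q ^ k := dvd_pow hpq hk
    have h5 : 1 ≤ q ^ k := Nat.one_le_pow _ _ (by omega)
    have h6 := Nat.dvd_sub h4 h3
    rw [Nat.sub_sub_self h5] at h6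
    exact hr'.one_lt.ne' (Nat.dvd_one.1 h6)
  have hP : ¬ p ∣ (q ^ 2 - 1) * (q ^ 6 - 1) * (q ^ 8 + q ^ 4 + 1) := by
    rw [hr'.dvd_mul, hr'.dvd_mul]
    rintro ((h3 | h3) | h3)
    · exact hsub 2 (by norm_num) h3
    · exact hsub 6 (by norm_num) h3
    · have h4 : p ∣ q ^ 8 + q ^ 4 := dvd_add (dvd_pow hpq (by norm_num)) (dvd_pow hpq (by norm_num))
      exact hr'.one_lt.ne' (Nat.dvd_one.1 ((Nat.dvd_add_right h4).1 h3))
  have h6 := index_eq hR hGG hN (d := 1) (fun h => hr'.one_lt.ne' (Nat.dvd_one.1 h)) hT hS hP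
  have hFA : FA [(1 : Fin 2)].length (q ^ 3) * 1 = 1 + q ^ 3 := by simp [FA, Finset.sum_range_succ]
  rw [hFA] at h6
  exact arith h2 h6

/-- the roots orthogonal to the highest root or positive -/
theorem near : ∀ k < 24, (V chevD4 J k 0 = 0 ∨ (0 ≤ V chevD4 J k 0 ∧ 0 ≤ V chevD4 J k 1)) →
    k = 23 ∨ (k < chevD4.nroots ∧ k ≠ 23 ∧ k ≠ chevD4.neg 23 ∧ chevD4.commTerms 23 k = []) := by
  decide +kernel

theorem comm_near {k : ℕ} (hk : k < 24) (h : V chevD4 J k 0 = 0 ∨ (0 ≤ V chevD4 J k 0 ∧ 0 ≤ V chevD4 J k 1))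
    (s t : K) : Commute (Elts.xG (F := K) hp.inList 23 s) (Elts.xG hp.inList k t) := by
  rcases near k hk h with rfl | ⟨h1, h2, h3, h4⟩
  · show _ * _ = _ * _
    rw [Elts.xG_add, Elts.xG_add, add_comm]
  · exact commute_of_nil hp (show 23 < chevD4.nroots by decide +kernel) h1 h2 h3 h4 s t

/-- the parabolic subgroup normalises the highest root group -/
theorem PJ_le (hφ : ∀ x, φ x = x ^ q) :
    PJ CoxeterMatrix.G₂.toCoxeterSystem isCartan (T K q) (X φ q) {j | j ∈ ([1] : List (Fin 2))} ≤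
      Subgroup.normalizer (ZZ K q : Set ↥(twistedD4 K q)) := by
  have hX : ∀ x : Fin 2 → ℤ, (x 0 = 0 ∨ (0 ≤ x 0 ∧ 0 ≤ x 1)) →
      X φ q x ≤ Subgroup.normalizer (ZZ K q : Set ↥(twistedD4 K q)) := by
    intro x hx g hg
    have hg' : (g : GL chevD4.Idx K) ∈ rspan (Elts.xG (F := K) hp.inList) {k | k < chevD4.nroots ∧ V chevD4 J k = x} :=
      hg.1
    have hle : rspan (Elts.xG (F := K) hp.inList) {k | k < chevD4.nroots ∧ V chevD4 J k = x} ≤
        Subgroup.centralizer (Set.range fun s : K => Elts.xG (F := K) hp.inList 23 s) := by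
      refine rspan_le _ fun k hk t => ?_
      rw [Subgroup.mem_centralizer_iff]
      rintro _ ⟨s, rfl⟩
      exact comm_near hk.1 (by rw [hk.2]; exact hx) s t
    have h1 := Subgroup.mem_centralizer_iff.1 (hle hg')
    apply Heis.mem_norm
    rintro z ⟨a, ha⟩
    have ha' : Elts.xG (F := K) hp.inList 23 a = (z : GL chevD4.Idx K) := ha
    have h2 : g * z * g⁻¹ = z := by
      rw [mul_inv_eq_iff_eq_mul]
      apply Subtype.ext
      have h3 := h1 _ ⟨a, rfl⟩
      change Elts.xG (F := K) hp.inList 23 a * (g : GL chevD4.Idx K) =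
        (g : GL chevD4.Idx K) * Elts.xG (F := K) hp.inList 23 a at h3
      rw [ha'] at h3
      exact h3.symm
    rw [h2]
    exact ⟨a, ha⟩
  refine sup_le (sup_le ?_ (RGD.Sup_le fun x hx => hX x (Or.inl ?_))) (RGD.Sup_le fun x hx => hX x (Or.inr ?_))
  · rintro g hg
    have hd : (g : GL chevD4.Idx K) ∈ chevD4.diagonalSubgroup K := hg.1
    apply Heis.mem_norm
    rintro z ⟨a, ha⟩
    have ha' : Elts.xG (F := K) hp.inList 23 a = (z : GL chevD4.Idx K) := ha
    have h1 : (g : GL chevD4.Idx K) * Elts.xG (F := K) hp.inList 23 a * (g : GL chevD4.Idx K)⁻¹ ∈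
        chevD4.rootSubgroup K 23 := by
      have e : cj (g : GL chevD4.Idx K) (chevD4.rootSubgroup K 23) = chevD4.rootSubgroup K 23 :=
        NPerm.conjRoot_diagonal hp.inList hd (show 23 < chevD4.nroots by decide +kernel)
      rw [← e]
      exact conj_mem_cj.2 (Elts.xG_mem_rootSubgroup hp.inList 23 a)
    obtain ⟨u, hu⟩ := (Elts.mem_rootSubgroup_iff hp.inList _ _).1 h1
    refine ⟨u, ?_⟩
    show Elts.xG (F := K) hp.inList 23 u = (g : GL chevD4.Idx K) * (z : GL chevD4.Idx K) * (g : GL chevD4.Idx K)⁻¹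
    rw [← ha', hu]
  · exact hx.2 0 (by decide)
  · exact ⟨hx.2.1 0, hx.2.1 1⟩

theorem index_normalizer_le (hq : IsPrimePow q) (hK : Fintype.card K = q ^ 3) (hφ : ∀ x, φ x = x ^ q) :
    (Subgroup.normalizer (ZZ K q : Set ↥(twistedD4 K q))).index ≤ q ^ 10 := by
  have : Finite (GL chevD4.Idx K) := inferInstance
  exact (Subgroup.index_antitone (PJ_le hφ)).trans (index_PJ_le hq hK hφ)

end Cfsg.Agent.H808.TD
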