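import Cfsg.Agent.H808.TD.Rot
import Cfsg.Agent.H83.TwDFour
import Cfsg.Agent.H209.IF.Kill
import Cfsg.Agent.Schreier.ThreeD4
import Cfsg.Agent.Hexagon.TwD4RGD

/-!
# `³D₄(q)`, `q` even: no counterexample to S5719 with `|A|` even
-/

set_option autoImplicit false
set_option linter.unusedSectionVars false

namespace Cfsg.Agent.H808.TD

open Cfsg.Lie Cfsg.Agent.ChevalleyStructure
open Cfsg.Agent.ChevalleyStructure.D4Fixed (sig fix mem_fix twisted_le_fix)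
open Cfsg.Agent.ChevalleyStructure.D4Cols (xU coe_xU wU)
open Cfsg.Agent.ChevalleyStructure.D4Comm
open Cfsg.Agent.ChevalleyStructure.D4NCheck
open Cfsg.Agent.ChevalleyStructure.D4NConj (nG nR hR nR_def hR_def nG_def)
open Cfsg.Agent.ChevalleyStructure.TwistedU Cfsg.Agent.ChevalleyStructure.D4U
open Cfsg.Agent.ChevalleyStructure.D4Twisted
open Cfsg.Agent.H934 Cfsg.Agent.H934.HeisTw Cfsg.Agent.H934.HeisRoot
open Cfsg.Agent.H255 Cfsg.Agent.H255.IFK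
open scoped Pointwise

universe u

variable {K : Type u} [Field K] [Fintype K] [CharP K 2] {q : ℕ} {φ : K →+* K} {A : Subgroup ↥(twistedD4 K q)}

/-- negative roots -/
def lN : List ℕ := [0, 1, 2, 3, 4, 6, 7, 8, 9]

theorem RS_neg_le : RS K lN ≤ chevD4.negUnipotent K := by
  refine rspan_le xG fun s hs t => ?_
  have h1 : ∀ s ∈ lN, chevD4.IsNegRoot s := by decide +kernel
  exact Elts.xG_mem_negUnipotent HeisD4.hD (h1 s hs) t

theorem RS_lQ_le : RS K lQ ≤ chevD4.borelSubgroup K := by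
  have h : RS K lQ ≤ chevD4.posUnipotent K := RS_le_U (by decide)
  have h2 : chevD4.posUnipotent K ≤ chevD4.borelSubgroup K := le_sup_left
  exact h.trans h2

/-- `x₁₄(1)` -/
noncomputable def e14 (hφ : ∀ x, φ x = x ^ q) : ↥(twistedD4 K q) :=
  ⟨xG 14 1, xG14_mem hφ (map_one φ)⟩

/-- `x₉(1)` -/
noncomputable def e9 (hφ : ∀ x, φ x = x ^ q) : ↥(twistedD4 K q) :=
  ⟨xG 9 1, by rw [← xU_eq]; exact D4Fixed.x9_mem (one_pow q)⟩

theorem e14_mem (hφ : ∀ x, φ x = x ^ q) : e14 hφ ∈ XR K q [14] := mem_RS_single.2 ⟨1, rfl⟩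

theorem e9_mem (hφ : ∀ x, φ x = x ^ q) : e9 hφ ∈ XR K q [9] := mem_RS_single.2 ⟨1, rfl⟩

theorem e14_ne (hφ : ∀ x, φ x = x ^ q) : e14 hφ ≠ 1 := by
  intro h
  have h1 : (xG 14 1 : GL chevD4.Idx K) = 1 := congrArg Subtype.val h
  exact one_ne_zero ((D4RGD.xG_eq_one_iff (by norm_num) _).1 h1)

theorem e9_ne (hφ : ∀ x, φ x = x ^ q) : e9 hφ ≠ 1 := by
  intro h
  have h1 : (xG 9 1 : GL chevD4.Idx K) = 1 := congrArg Subtype.val h
  exact one_ne_zero ((D4RGD.xG_eq_one_iff (by norm_num) _).1 h1)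

theorem na_eq (hφ : ∀ x, φ x = x ^ q) :
    (e14 hφ * e9 hφ * e14 hφ : ↥(twistedD4 K q)) = ⟨na K, na_mem hφ⟩ := by
  apply Subtype.ext
  show xG 14 1 * xG 9 1 * xG 14 1 = nR 14 (1 : K)
  rw [nR_def, inv_one, CharTwo.neg_eq, mul_assoc]

/-- the small bound `f` -/
theorem exists_f (hq : IsPrimePow q) (hK : Fintype.card K = q ^ 3) (hφ : ∀ x, φ x = x ^ q) (hA : IFK.Fix A)
    (hZ : ZZ K q ≤ A) : ∃ t ∈ ZZ K q, ∃ f < q, ∀ B : Subgroup ↥(twistedD4 K q),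
      B ≤ Subgroup.centralizer ({t} : Set ↥(twistedD4 K q)) → A.relIndex B ≤ f := by
  have : Finite (GL chevD4.Idx K) := inferInstance
  set t := om hφ * e14 hφ * (om hφ)⁻¹ with ht
  set x := om hφ * e9 hφ * (om hφ)⁻¹ with hx
  have htZ : t ∈ ZZ K q := mem_ZZ'.2 (om_conj hφ (by decide +kernel) (e14_mem hφ))
  have ht1 : t ≠ 1 := fun h => e14_ne hφ (conj_eq_one_iff.1 h)
  have hxA : x ∈ A := X0_le hq hK hφ hA hZ (e9_mem hφ)
  have hS := sp hq.one_lt hK hφ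
  have hcj : IsConj t x := by
    have h1 : (⟨na K, na_mem hφ⟩ : ↥(twistedD4 K q))⁻¹ * e9 hφ * ⟨na K, na_mem hφ⟩ ∈ XR K q [14] :=
      na_inv_RS K (by decide +kernel) (e9_mem hφ)
    set n : ↥(twistedD4 K q) := ⟨na K, na_mem hφ⟩ with hn
    have h2 : om hφ * (n⁻¹ * e9 hφ * n) * (om hφ)⁻¹ ∈ ZZ K q := mem_ZZ'.2 (om_conj hφ (by decide +kernel) h1)
    have h3 : om hφ * (n⁻¹ * e9 hφ * n) * (om hφ)⁻¹ ≠ 1 := by
      intro h
      have h4 := conj_eq_one_iff.1 h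
      apply e9_ne hφ
      have h5 : e9 hφ = n * (n⁻¹ * e9 hφ * n) * n⁻¹ := by group
      rw [h5, h4, mul_one, mul_inv_cancel]
    refine (isConj_ZZ hK hφ htZ h2 ht1 h3).trans (isConj_iff.2 ⟨om hφ * n * (om hφ)⁻¹, ?_⟩)
    rw [hx]
    group
  have hQn : ∀ c ∈ QQ K q, (t * x * t) * c * (t * x * t)⁻¹ ∈ QQ K q → c = 1 := by
    intro c hc hc'
    have e1 : t * x * t = om hφ * ⟨na K, na_mem hφ⟩ * (om hφ)⁻¹ := by
      rw [← na_eq hφ, ht, hx]
      group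
    rw [e1] at hc'
    set n : ↥(twistedD4 K q) := ⟨na K, na_mem hφ⟩ with hn
    have h1 : (om hφ)⁻¹ * c * om hφ ∈ XR K q (lQ.map fun s => rb' (rfl' 1 s)) :=
      om_inv_conj hφ (by decide +kernel) (QQ_le hc)
    have h2 : n * ((om hφ)⁻¹ * c * om hφ) * n⁻¹ ∈ XR K q (lQ.map fun s => rfl' 1 (rb' (rfl' 1 s))) :=
      na_RS K (l' := lQ.map fun s => rfl' 1 (rb' (rfl' 1 s))) (by decide +kernel) h1
    have h3 : om hφ * (n * ((om hφ)⁻¹ * c * om hφ) * n⁻¹) * (om hφ)⁻¹ ∈ XR K q lN :=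
      om_conj hφ (by decide +kernel) h2
    have h4 : om hφ * (n * ((om hφ)⁻¹ * c * om hφ) * n⁻¹) * (om hφ)⁻¹ =
        (om hφ * n * (om hφ)⁻¹) * c * (om hφ * n * (om hφ)⁻¹)⁻¹ := by group
    rw [h4] at h3
    have h5 : (((om hφ * n * (om hφ)⁻¹) * c * (om hφ * n * (om hφ)⁻¹)⁻¹ : ↥(twistedD4 K q)) : GL chevD4.Idx K) = 1 := by
      have h6 := (Cfsg.Agent.S1037.result (F := K) chevD4 HeisD4.hD).1
      exact h6.le ⟨RS_lQ_le (QQ_le hc'), RS_neg_le h3⟩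
    have h6 : (om hφ * n * (om hφ)⁻¹) * c * (om hφ * n * (om hφ)⁻¹)⁻¹ = 1 := Subtype.ext h5
    exact conj_eq_one_iff.1 h6
  obtain ⟨f, h1, h2⟩ := s13 (Q := QQ K q) hA (hZ htZ) (orderOf_XR (mem_ZZ'.1 htZ) ht1) hxA hcj
    (fun c hc => Subgroup.mem_centralizer_singleton_iff.2 (hS.central t htZ c hc))
    (opp_centralizer (n := t * x * t) rfl (fun c hc => hS.central t htZ c hc) hQn)
  refine ⟨t, htZ, f, ?_, h1⟩
  rw [card_QQ hq.one_lt hK hφ] at h2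
  have h3 := h2.trans_le (index_ZZ hq hK hφ htZ)
  have hq0 : 0 < q := hq.pos
  have h4 : f ^ 4 * q ^ 9 < q ^ 2 * q ^ 9 := by
    calc f ^ 4 * q ^ 9 = f ^ 4 * (q * (q ^ 4) ^ 2) := by ring
      _ < q ^ 11 := h3
      _ = _ := by ring
  have h5 : f ^ 4 < q ^ 2 := lt_of_mul_lt_mul_right h4 (Nat.zero_le _)
  by_contra hcon
  push Not at hcon
  have h6 : q ^ 4 ≤ f ^ 4 := Nat.pow_le_pow_left hcon 4
  have h7 : q ^ 2 ≤ q ^ 4 := Nat.pow_le_pow_right hq0 (by norm_num)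
  omega

/-! ### the torus -/

theorem x_one_conj {c : K} (hc : c ≠ 0) {s : ℕ} (hs : s < 24) (t : K) :
    wU (chevD4.hWord 14 c) * xG s t * (wU (chevD4.hWord 14 c))⁻¹ = xG s (c ^ (chevD4.cartan 1 s) * t) := by
  have h1 := Cfsg.Agent.S1032.result (F := K) chevD4 HeisD4.hD 1 s (by decide) hs c hc t
  rw [mul_inv_eq_iff_eq_mul]
  apply Units.ext
  rw [Units.val_mul, Units.val_mul, D4H1.coe_wU_hWord]
  exact h1

theorem conj_X {c : K} (hc : c ≠ 0) (hcφ : φ c = c) (s : K) :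
    wU (chevD4.hWord 14 c) * D4Fixed.X φ s * (wU (chevD4.hWord 14 c))⁻¹ = D4Fixed.X φ (c⁻¹ * s) := by
  have e1 : chevD4.cartan 1 18 = -1 := by decide +kernel
  have e2 : chevD4.cartan 1 13 = -1 := by decide +kernel
  have e3 : chevD4.cartan 1 12 = -1 := by decide +kernel
  have h1 := x_one_conj hc (show 18 < 24 by norm_num) s
  have h2 := x_one_conj hc (show 13 < 24 by norm_num) (φ s)
  have h3 := x_one_conj hc (show 12 < 24 by norm_num) (φ (φ s))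
  rw [e1, zpow_neg_one] at h1
  rw [e2, zpow_neg_one] at h2
  rw [e3, zpow_neg_one] at h3
  have e : D4Fixed.X φ (c⁻¹ * s) = xG 18 (c⁻¹ * s) * xG 13 (c⁻¹ * φ s) * xG 12 (c⁻¹ * φ (φ s)) := by
    unfold D4Fixed.X
    rw [xU_eq, xU_eq, xU_eq, map_mul, map_mul, map_inv₀, hcφ, map_inv₀, hcφ]
  rw [e, ← h1, ← h2, ← h3]
  unfold D4Fixed.X
  rw [xU_eq, xU_eq, xU_eq]
  group

theorem n14_memA (hq : IsPrimePow q) (hK : Fintype.card K = q ^ 3) (hφ : ∀ x, φ x = x ^ q) (hA : IFK.Fix A)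
    (hZ : ZZ K q ≤ A) {c : K} (hc : φ c = c) : wU (chevD4.nWord 14 c) ∈ A.map (twistedD4 K q).subtype := by
  have e : wU (chevD4.nWord 14 c) = xU 14 c * (xU 9 (-c⁻¹) * (xU 14 c * 1)) := rfl
  rw [e]
  have h1 : c ^ q = c := (hφ c).symm.trans hc
  have h2 : (-c⁻¹) ^ q = -c⁻¹ := by
    rw [← hφ, map_neg, map_inv₀, hc]
  have a1 : xU 14 c ∈ A.map (twistedD4 K q).subtype :=
    ⟨⟨xU 14 c, D4Fixed.x14_mem h1⟩, X14_le hq hK hφ hA hZ (mem_RS_single.2 ⟨c, xU_eq _ _⟩), rfl⟩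
  have a2 : xU 9 (-c⁻¹) ∈ A.map (twistedD4 K q).subtype :=
    ⟨⟨xU 9 (-c⁻¹), D4Fixed.x9_mem h2⟩, X9_le hq hK hφ hA hZ (mem_RS_single.2 ⟨-c⁻¹, xU_eq _ _⟩), rfl⟩
  exact mul_mem a1 (mul_mem a2 (mul_mem a1 (one_mem _)))

theorem h14_memA (hq : IsPrimePow q) (hK : Fintype.card K = q ^ 3) (hφ : ∀ x, φ x = x ^ q) (hA : IFK.Fix A)
    (hZ : ZZ K q ≤ A) {c : K} (hc : φ c = c) : wU (chevD4.hWord 14 c) ∈ A.map (twistedD4 K q).subtype := by
  rw [D4H1.wU_hWord]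
  exact mul_mem (n14_memA hq hK hφ hA hZ hc) (n14_memA hq hK hφ hA hZ (by rw [map_neg, map_one]))

/-- `X_b ≤ A` -/
theorem Xb_le (hq : IsPrimePow q) (hK : Fintype.card K = q ^ 3) (hφ : ∀ x, φ x = x ^ q) (hA : IFK.Fix A)
    (hZ : ZZ K q ≤ A) : XR K q [18, 13, 12] ≤ A := by
  have : Finite (GL chevD4.Idx K) := inferInstance
  have hle := twisted_le_fix hK hφ
  obtain ⟨t, htZ, f, hf, hB⟩ := exists_f hq hK hφ hA hZ
  set B := XR K q [18, 13, 12] with hBdef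
  have hBC : B ≤ Subgroup.centralizer ({t} : Set ↥(twistedD4 K q)) := by
    obtain ⟨a, ha⟩ := mem_RS_single.1 (mem_XR.1 (mem_ZZ'.1 htZ))
    have h1 : RS K [18, 13, 12] ≤ Subgroup.centralizer ({xG 23 a} : Set (GL chevD4.Idx K)) := by
      refine rspan_le xG fun s hs u => ?_
      rw [Subgroup.mem_centralizer_singleton_iff]
      have h2 : ∀ s ∈ [18, 13, 12], (decide (12 ≤ s) && decide (s < 24) && decide (12 ≤ 23) && decide (23 < 24) &&
        decide (23 ≠ s) && (D4CommTab.cm s 23).isNone) = true := by decide +kernel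
      exact (xG_commute (h2 s hs) u a).eq
    intro g hg
    rw [Subgroup.mem_centralizer_singleton_iff]
    apply Subtype.ext
    have h2 := Subgroup.mem_centralizer_singleton_iff.1 (h1 hg)
    show (g : GL chevD4.Idx K) * (t : GL chevD4.Idx K) = (t : GL chevD4.Idx K) * (g : GL chevD4.Idx K)
    rw [ha]
    exact h2
  have h1 := hB B hBC
  by_contra hcon
  obtain ⟨v, hvB, hvA⟩ := Set.not_subset.1 hcon
  obtain ⟨s, hs⟩ := RS_outer_fix (φ := φ) (mem_XR.1 hvB) (hle v.2)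
  -- the translates
  let y : K → ↥(twistedD4 K q) := fun c => ⟨D4Fixed.X φ c, D4Fixed.X_mem hφ c⟩
  have hyB : ∀ c, y c ∈ B := fun c => X_mem_RS c
  have hyadd : ∀ c d, y (c + d) = y c * y d := fun c d => Subtype.ext (Cfsg.Agent.Schreier.ThreeD4.X_add c d)
  have hyneg : ∀ c, y (-c) = (y c)⁻¹ := fun c => Subtype.ext (D4Twisted.X_neg φ c)
  have hyv : y s = v := Subtype.ext hs.symm
  have hscale : ∀ c, φ c = c → c ≠ 0 → ∀ d, y d ∈ A → y (c⁻¹ * d) ∈ A := by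
    intro c hc hc0 d hd
    obtain ⟨h, hhA, hh⟩ := h14_memA hq hK hφ hA hZ hc
    have h2 : h * y d * h⁻¹ ∈ A := mul_mem (mul_mem hhA hd) (inv_mem hhA)
    have h3 : h * y d * h⁻¹ = y (c⁻¹ * d) := by
      apply Subtype.ext
      have h4 : (h : GL chevD4.Idx K) = wU (chevD4.hWord 14 c) := hh
      show (h : GL chevD4.Idx K) * D4Fixed.X φ d * (h : GL chevD4.Idx K)⁻¹ = D4Fixed.X φ (c⁻¹ * d)
      rw [h4, conj_X hc0 hc]
    rwa [h3] at h2
  have h2 : q ≤ A.relIndex B := by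
    have h3 : Nat.card {a : K // φ a = a} ≤ Nat.card (B ⧸ A.subgroupOf B) := by
      refine Nat.card_le_card_of_injective
        (fun a : {a : K // φ a = a} => (QuotientGroup.mk (⟨y (a * s), hyB _⟩ : B) : B ⧸ A.subgroupOf B)) ?_
      intro a b hab
      rw [QuotientGroup.eq, Subgroup.mem_subgroupOf] at hab
      have h4 : y (-(a * s) + b * s) ∈ A := by
        rw [hyadd, hyneg]
        exact hab
      have h5 : -((a : K) * s) + b * s = (b - a) * s := by ring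
      rw [h5] at h4
      by_contra hne
      have hba : (b : K) - a ≠ 0 := fun h => hne (Subtype.ext (sub_eq_zero.1 h).symm)
      have h6 := hscale ((b : K) - a) (by rw [map_sub, a.2, b.2]) hba _ h4
      rw [inv_mul_cancel_left₀ hba, hyv] at h6
      exact hvA h6
    rwa [card_fix_field hq.one_lt hK hφ] at h3
  omega

/-- **`A = ⊤`** -/
theorem eq_top (hq : IsPrimePow q) (hK : Fintype.card K = q ^ 3) (hφ : ∀ x, φ x = x ^ q) (hA : IFK.Fix A)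
    (hZ : ZZ K q ≤ A) : A = ⊤ := by
  have : Finite (GL chevD4.Idx K) := inferInstance
  have h1 := Xb_le hq hK hφ hA hZ
  have h14 := X14_le hq hK hφ hA hZ
  have h9 := X9_le hq hK hφ hA hZ
  have h2 : XR K q [18, 13, 12] ≤ MulAut.conj ((om hφ) ^ 3)⁻¹ • A := by
    refine Xb_le hq hK hφ (hA.conj _) ?_
    intro z hz
    rw [mem_conj]
    have h3 := rot_all hq hK hφ hA hZ 3 z hz
    rwa [inv_inv]
  have h3 : XR K q [5, 10, 11] ≤ A := by
    intro g hg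
    have g1 := om_inv_conj hφ (l' := [2, 6, 3]) (by decide +kernel) hg
    have g2 := om_inv_conj hφ (l' := [4, 7, 8]) (by decide +kernel) g1
    have g3 := om_inv_conj hφ (l' := [18, 13, 12]) (by decide +kernel) g2
    have h4 := h2 g3
    rw [mem_conj] at h4
    have e : ((om hφ) ^ 3)⁻¹⁻¹ * ((om hφ)⁻¹ * ((om hφ)⁻¹ * ((om hφ)⁻¹ * g * om hφ) * om hφ) * om hφ) * ((om hφ) ^ 3)⁻¹ =
        g := by
      rw [pow_succ, pow_two]
      group
    rwa [e] at h4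
  have h5 : twistedD4 K q ≤ A.map (twistedD4 K q).subtype := by
    refine D4Fixed.twisted_induction hφ (fun t ht => ?_) (fun t ht => ?_) (fun t => ?_) (fun t => ?_)
    · exact ⟨⟨xU 14 t, D4Fixed.x14_mem ((hφ t).symm.trans ht)⟩, h14 (mem_RS_single.2 ⟨t, xU_eq _ _⟩), rfl⟩
    · exact ⟨⟨xU 9 t, D4Fixed.x9_mem ((hφ t).symm.trans ht)⟩, h9 (mem_RS_single.2 ⟨t, xU_eq _ _⟩), rfl⟩
    · exact ⟨⟨D4Fixed.X φ t, D4Fixed.X_mem hφ t⟩, h1 (X_mem_RS t), rfl⟩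
    · exact ⟨⟨D4Fixed.Y φ t, D4Fixed.Y_mem hφ t⟩, h3 (Hexagon.TwD4RGD.Y_mem_RS t), rfl⟩
  rw [eq_top_iff]
  rintro ⟨g, hg⟩ -
  obtain ⟨a, ha, hag⟩ := h5 hg
  have : a = ⟨g, hg⟩ := Subtype.ext hag
  rwa [← this]

/-! ### the short root involutions -/

theorem arith_order {q i c : ℕ} (hq : 2 ≤ q) (hc : q ^ 8 ≤ c)
    (h : c * i = q ^ 12 * (q ^ 2 - 1) * (q ^ 6 - 1) * (q ^ 8 + q ^ 4 + 1)) : i ≤ q ^ 20 := by
  have h1 : q ^ 8 * i ≤ q ^ 8 * q ^ 20 := by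
    calc q ^ 8 * i ≤ c * i := Nat.mul_le_mul_right _ hc
      _ = q ^ 12 * ((q ^ 2 - 1) * (q ^ 6 - 1) * (q ^ 8 + q ^ 4 + 1)) := by rw [h]; ring
      _ ≤ q ^ 12 * q ^ 16 := by
        apply Nat.mul_le_mul_left
        obtain ⟨a, ha⟩ : ∃ a, q ^ 2 = a + 1 := ⟨q ^ 2 - 1, (Nat.sub_add_cancel (Nat.one_le_pow _ _ (by omega))).symm⟩
        have e6 : q ^ 6 = (a + 1) ^ 3 := by rw [← ha]; ring
        have e8 : q ^ 8 = (a + 1) ^ 4 := by rw [← ha]; ring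
        have e4 : q ^ 4 = (a + 1) ^ 2 := by rw [← ha]; ring
        have e16 : q ^ 16 = (a + 1) ^ 8 := by rw [← ha]; ring
        rw [e6, e8, e4, e16, ha]
        have e1 : a + 1 - 1 = a := by omega
        have e2 : (a + 1) ^ 3 - 1 = a * (a ^ 2 + 3 * a + 3) := by
          apply Nat.sub_eq_of_eq_add; ring
        rw [e1, e2]
        have e3 : (a + 1) ^ 8 = a * (a * (a ^ 2 + 3 * a + 3)) * ((a + 1) ^ 4 + (a + 1) ^ 2 + 1) +
            ((a + 1) ^ 6 * a + 2 * (a + 1) ^ 4 * a + (a + 1) ^ 2 * (2 * a + 1) + a) := by ring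
        rw [e3]
        exact Nat.le_add_right _ _
      _ = q ^ 8 * q ^ 20 := by ring
  exact Nat.le_of_mul_le_mul_left h1 (pow_pos (by omega) 8)

theorem short (hq : IsPrimePow q) (hK : Fintype.card K = q ^ 3) (hφ : ∀ x, φ x = x ^ q) (hA : IFK.Fix A)
    {t : ↥(twistedD4 K q)} (ht : t ∈ A) (htQ : t ∈ QQ K q) (ho : orderOf t = 2) : ∃ z ∈ ZZ K q, z ∈ A ∧ z ≠ 1 := by
  have : Finite (GL chevD4.Idx K) := inferInstance
  by_contra hcon
  push Not at hcon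
  have hS := sp hq.one_lt hK hφ
  have hZ := card_ZZ hq.one_lt hK hφ
  have hQ := card_QQ hq.one_lt hK hφ
  have hq1 := hq.two_le
  have hbot : A ⊓ ZZ K q = ⊥ := (Subgroup.eq_bot_iff_forall _).2 fun z hz => hcon z hz.2 hz.1
  have hZA : ¬ ZZ K q ≤ A := by
    intro h
    rw [inf_eq_right.2 h] at hbot
    rw [hbot, Subgroup.card_bot] at hZ
    omega
  have h1 := s2 hA hS hZ hZ hQ (w := 1) (by rw [hbot, Subgroup.card_bot]) hZA ht htQ ho
  have h2 := card_centralizer_ge hS le_rfl htQ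
  rw [hZ, hQ] at h2
  have h3 : q ^ 8 ≤ Nat.card (Subgroup.centralizer ({t} : Set ↥(twistedD4 K q))) := by
    have h4 : Nat.card (QQ K q ⊓ Subgroup.centralizer ({t} : Set ↥(twistedD4 K q)) : Subgroup ↥(twistedD4 K q)) ≤
        Nat.card (Subgroup.centralizer ({t} : Set ↥(twistedD4 K q))) := Subgroup.card_le_of_le inf_le_right
    have h5 : q ^ 8 * q ≤ Nat.card (Subgroup.centralizer ({t} : Set ↥(twistedD4 K q))) * q := by
      calc q ^ 8 * q = q * (q ^ 4) ^ 2 := by ring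
        _ ≤ _ := h2
        _ ≤ _ := Nat.mul_le_mul_right _ h4
    exact Nat.le_of_mul_le_mul_right h5 (by omega)
  have h4 := (Subgroup.centralizer ({t} : Set ↥(twistedD4 K q))).card_mul_index
  rw [Cfsg.Agent.S1067.result hq hK] at h4
  have h5 := arith_order hq1 h3 (by rw [h4])
  have h6 : (q * 1) ^ 5 * (Subgroup.centralizer ({t} : Set ↥(twistedD4 K q))).index ≤ (q * q ^ 4) ^ 5 := by
    calc _ ≤ (q * 1) ^ 5 * q ^ 20 := Nat.mul_le_mul_left _ h5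
      _ = _ := by ring
  omega

end Cfsg.Agent.H808.TD
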