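import Cfsg.Agent.H808.TD.Kill

/-!
# S5719, the cell `³D₄(q)`, `q` even (helper808)
-/

set_option autoImplicit false
set_option linter.unusedSectionVars false

namespace Cfsg.Agent.H808.TD

open Cfsg.Lie Cfsg.Agent.ChevalleyStructure
open Cfsg.Agent.ChevalleyStructure.D4Comm
open Cfsg.Agent.ChevalleyStructure.D4U
open Cfsg.Agent.H209.Fxy
open Cfsg.Agent.H255 Cfsg.Agent.H255.IFK
open scoped Pointwise

/-- **The cell `td4`, `q` even.** -/
theorem td4_even (K : Type) [Field K] [Fintype K] (q : ℕ) (hq : IsPrimePow q) (hK : Fintype.card K = q ^ 3)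
    (hev : Even q) (hs : IsSimpleGroup (twistedD4 K q)) : KillE (twistedD4 K q) := by
  intro A Γ h hinv
  obtain ⟨t, ht, ho⟩ := hinv
  have hfin : Finite (GL chevD4.Idx K) := inferInstance
  have hchar : CharP K 2 := by
    obtain ⟨p, hp⟩ := CharP.exists K
    have hpp : p.Prime := CharP.char_is_prime K p
    obtain ⟨n, -, hn⟩ := FiniteField.card K p
    have h2 : 2 ∣ p := by
      have h3 : 2 ∣ Fintype.card K := by
        rw [hK]
        exact dvd_pow hev.two_dvd (by norm_num)
      rw [hn] at h3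
      exact Nat.prime_two.dvd_of_dvd_pow h3
    have h4 : 2 = p := (Nat.prime_dvd_prime_iff_eq Nat.prime_two hpp).1 h2
    subst h4
    exact hp
  obtain ⟨φ, hφ⟩ := D4Fixed.exists_frob hq hK
  have hS := sp (φ := φ) hq.one_lt hK hφ
  -- the group is not commutative
  have hna : ∃ a b : ↥(twistedD4 K q), a * b ≠ b * a := by
    obtain ⟨z, hz, hz1⟩ := exists_ZZ hq hK hφ
    have hx : e14 hφ ∉ ZZ K q := by
      intro h2
      obtain ⟨b, hb⟩ := mem_RS_single.1 (mem_XR.1 (mem_ZZ'.1 h2))
      have hb' : (xG 14 1 : GL chevD4.Idx K) = xG 23 b := hb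
      have h3 := D4Pos.lprod_inj [14, 23] (by decide +kernel) (t := fun r => if r = 14 then (1 : K) else 0)
        (t' := fun r => if r = 14 then 0 else b) (by
          rw [TwistedU.lprod_cons, TwistedU.lprod_cons, TwistedU.lprod_nil, mul_one, TwistedU.lprod_cons,
            TwistedU.lprod_cons, TwistedU.lprod_nil, mul_one]
          show xG 14 1 * xG 23 0 = xG 14 0 * xG 23 b
          rw [xG_zero, xG_zero, mul_one, one_mul, ← hb']) 14 (by simp)
      exact one_ne_zero (h3 : (1 : K) = 0)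
    obtain ⟨y, -, hy⟩ := hS.special (e14 hφ) (XR_le_QQ (by decide) (e14_mem hφ)) hx z hz
    refine ⟨e14 hφ, y, fun hc => hz1 ?_⟩
    rw [← hy, hc]
    group
  have hF : IFK.Fix A := fix_of_IF h hna
  have main : ∀ g : ↥(twistedD4 K q), g * t * g⁻¹ ∈ QQ K q → A = ⊤ := by
    intro g hg
    have hA := hF.conj g
    have hta : g * t * g⁻¹ ∈ MulAut.conj g • A := conj_mem_conj ht
    have hoa : orderOf (g * t * g⁻¹) = 2 := by
      rw [← ho]
      exact orderOf_injective (MulAut.conj g).toMonoidHom (MulAut.conj g).injective t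
    obtain ⟨z, hz, hzA, hz1⟩ := short hq hK hφ hA hta hg hoa
    have h1 := eq_top hq hK hφ hA (ZZ_le hq hK hφ hA hzA hz hz1)
    rw [Subgroup.eq_top_iff']
    intro x
    have h2 : g * x * g⁻¹ ∈ MulAut.conj g • A := by
      rw [h1]
      exact Subgroup.mem_top _
    rw [mem_conj] at h2
    have e : g⁻¹ * (g * x * g⁻¹) * g = x := by group
    rwa [e] at h2
  apply h.ne_top
  have ht2 : (t : GL chevD4.Idx K) * (t : GL chevD4.Idx K) = 1 := by
    have h1 := pow_orderOf_eq_one t
    rw [ho, pow_two] at h1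
    exact congrArg Subtype.val h1
  rcases Cfsg.Agent.H83.TwDFour.exists_rep hK t.2 ht2 with h1 | ⟨R, hR, g, hg, he⟩
  · exfalso
    have h2 : t = 1 := Subtype.ext h1
    rw [h2, orderOf_one] at ho
    omega
  simp only [List.mem_cons, List.not_mem_nil, or_false] at hR
  have hPX : ∀ l : List ℕ, Cfsg.Agent.H83.ChevInv.PX Cfsg.Agent.Nodes.RGDTwD4.hp.inList K l ∈ RS K l := by
    intro l
    have key : ∀ m : List ℕ, (∀ r ∈ m, r ∈ l) →
        Cfsg.Agent.H83.ChevInv.PX Cfsg.Agent.Nodes.RGDTwD4.hp.inList K m ∈ RS K l := by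
      intro m
      induction m with
      | nil => intro _; exact one_mem _
      | cons r m ih =>
        intro hm
        rw [Cfsg.Agent.H83.ChevInv.PX_cons]
        exact mul_mem (TwistedU.mem_rspan xG (S := {k | k ∈ l}) (hm r (by simp)) 1)
          (ih fun r hr => hm r (List.mem_cons_of_mem _ hr))
    exact key l fun _ hr => hr
  rcases hR with rfl | rfl
  · refine main ⟨g, hg⟩ (hS.le' (mem_ZZ'.2 ?_))
    show g * t * g⁻¹ ∈ RS K [23]
    rw [he]
    exact hPX _
  · refine main (⟨na K, na_mem hφ⟩ * ⟨g, hg⟩) (XR_le_QQ (l := [19, 16, 15]) (by decide) ?_)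
    show na K * g * t * (na K * g)⁻¹ ∈ RS K [19, 16, 15]
    have h2 := na_RS K (l := [18, 13, 12]) (l' := [19, 16, 15]) (by decide +kernel) (hPX [18, 13, 12])
    rw [← he] at h2
    have e : na K * g * (t : GL chevD4.Idx K) * (na K * g)⁻¹ = na K * (g * t * g⁻¹) * (na K)⁻¹ := by group
    rw [e]
    exact h2

end Cfsg.Agent.H808.TD
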