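import Cfsg.Agent.H808.TD.Idx
import Cfsg.Agent.S1037

/-!
# `³D₄(q)`, `q` even: the long root groups of `A`
-/

set_option autoImplicit false
set_option linter.unusedSectionVars false

namespace Cfsg.Agent.H808.TD

open Cfsg.Lie Cfsg.Agent.ChevalleyStructure
open Cfsg.Agent.ChevalleyStructure.D4Fixed (sig fix mem_fix twisted_le_fix)
open Cfsg.Agent.ChevalleyStructure.D4Cols (xU coe_xU wU)
open Cfsg.Agent.ChevalleyStructure.D4Comm
open Cfsg.Agent.ChevalleyStructure.D4NCheck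
open Cfsg.Agent.ChevalleyStructure.D4NConj (nG nR hR)
open Cfsg.Agent.ChevalleyStructure.TwistedU Cfsg.Agent.ChevalleyStructure.D4U
open Cfsg.Agent.ChevalleyStructure.D4Twisted
open Cfsg.Agent.H934 Cfsg.Agent.H934.HeisTw Cfsg.Agent.H934.HeisRoot
open Cfsg.Agent.H255 Cfsg.Agent.H255.IFK
open scoped Pointwise

universe u

section Gen

variable {K : Type u} [Field K] {q : ℕ} {φ : K →+* K}

/-- the group generated by the root groups of a list of roots, in `³D₄(q)` -/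
def XR (K : Type u) [Field K] (q : ℕ) (l : List ℕ) : Subgroup ↥(twistedD4 K q) := (RS K l).subgroupOf (twistedD4 K q)

theorem mem_XR {l : List ℕ} {g : ↥(twistedD4 K q)} : g ∈ XR K q l ↔ (g : GL chevD4.Idx K) ∈ RS K l := Iff.rfl

/-- the rotation -/
noncomputable def om (hφ : ∀ x, φ x = x ^ q) : ↥(twistedD4 K q) := ⟨na K * nb K, mul_mem (na_mem hφ) (nb_mem hφ)⟩

theorem om_conj (hφ : ∀ x, φ x = x ^ q) {l l' : List ℕ}
    (h : (l.all fun s => decide (s < 24) && l'.contains (rfl' 1 (rb s))) = true) {g : ↥(twistedD4 K q)}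
    (hg : g ∈ XR K q l) : om hφ * g * (om hφ)⁻¹ ∈ XR K q l' := by
  rw [mem_XR] at hg ⊢
  have h1 := nb_RS K (l' := l.map rb) (by
    rw [List.all_eq_true] at h ⊢
    intro s hs
    have h2 := h s hs
    rw [Bool.and_eq_true] at h2 ⊢
    exact ⟨h2.1, List.contains_iff_mem.2 (List.mem_map.2 ⟨s, hs, rfl⟩)⟩) hg
  have h2 := na_RS K (l' := l') (by
    rw [List.all_eq_true] at h ⊢
    intro s hs
    obtain ⟨s, hs', rfl⟩ := List.mem_map.1 hs
    have h2 := h s hs'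
    rw [Bool.and_eq_true, decide_eq_true_eq] at h2 ⊢
    refine ⟨?_, h2.2⟩
    exact D4NConj.rfl'_lt (by norm_num) (D4NConj.rfl'_lt (by norm_num) (D4NConj.rfl'_lt (by norm_num) h2.1))) h1
  have e : ((om hφ * g * (om hφ)⁻¹ : ↥(twistedD4 K q)) : GL chevD4.Idx K) =
      na K * (nb K * g * (nb K)⁻¹) * (na K)⁻¹ := by
    show na K * nb K * (g : GL chevD4.Idx K) * (na K * nb K)⁻¹ = _
    group
  rw [e]
  exact h2

theorem om_inv_conj (hφ : ∀ x, φ x = x ^ q) {l l' : List ℕ}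
    (h : (l.all fun s => decide (s < 24) && l'.contains (rb' (rfl' 1 s))) = true) {g : ↥(twistedD4 K q)}
    (hg : g ∈ XR K q l) : (om hφ)⁻¹ * g * om hφ ∈ XR K q l' := by
  rw [mem_XR] at hg ⊢
  have h1 := na_inv_RS K (l' := l.map (rfl' 1)) (by
    rw [List.all_eq_true] at h ⊢
    intro s hs
    have h2 := h s hs
    rw [Bool.and_eq_true] at h2 ⊢
    exact ⟨h2.1, List.contains_iff_mem.2 (List.mem_map.2 ⟨s, hs, rfl⟩)⟩) hg
  have h2 := nb_inv_RS K (l' := l') (by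
    rw [List.all_eq_true] at h ⊢
    intro s hs
    obtain ⟨s, hs', rfl⟩ := List.mem_map.1 hs
    have h2 := h s hs'
    rw [Bool.and_eq_true, decide_eq_true_eq] at h2 ⊢
    refine ⟨?_, h2.2⟩
    exact D4NConj.rfl'_lt (by norm_num) h2.1) h1
  have e : (((om hφ)⁻¹ * g * om hφ : ↥(twistedD4 K q)) : GL chevD4.Idx K) =
      (nb K)⁻¹ * ((na K)⁻¹ * g * na K) * nb K := by
    show (na K * nb K)⁻¹ * (g : GL chevD4.Idx K) * (na K * nb K) = _
    group
  rw [e]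
  exact h2

theorem mem_RS_single {r : ℕ} {g : GL chevD4.Idx K} : g ∈ RS K [r] ↔ ∃ t, g = xG r t := by
  constructor
  · intro hg
    let H : Subgroup (GL chevD4.Idx K) :=
      { carrier := {g | ∃ t, g = xG r t}
        one_mem' := ⟨0, (xG_zero r).symm⟩
        mul_mem' := by
          rintro _ _ ⟨a, rfl⟩ ⟨b, rfl⟩
          exact ⟨a + b, (xG_add r a b).symm⟩
        inv_mem' := by
          rintro _ ⟨a, rfl⟩
          refine ⟨-a, ?_⟩
          rw [inv_eq_iff_mul_eq_one, ← xG_add, add_neg_cancel, xG_zero] }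
    have h : RS K [r] ≤ H := rspan_le xG fun s hs t => by
      have : s = r := List.mem_singleton.1 hs
      subst this
      exact ⟨t, rfl⟩
    exact h hg
  · rintro ⟨t, rfl⟩
    exact mem_rspan xG (S := {k | k ∈ [r]}) (by simp) t

theorem mem_ZZ' {g : ↥(twistedD4 K q)} : g ∈ ZZ K q ↔ g ∈ XR K q [23] := by
  rw [mem_XR, mem_RS_single]
  exact ⟨fun ⟨a, ha⟩ => ⟨a, ha.symm⟩, fun ⟨a, ha⟩ => ⟨a, ha.symm⟩⟩

theorem RS_le_Qg {l : List ℕ} (h : ∀ s ∈ l, ∃ i, HeisD4.tab.S i = s) :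
    RS K l ≤ (HeisTwD4.R K).toData.Qg := by
  refine rspan_le xG fun s hs t => ?_
  obtain ⟨i, rfl⟩ := h s hs
  rw [← HeisTwD4.R_x, ← (HeisTwD4.R K).X_single]
  exact (HeisTwD4.R K).toData.X_mem_Qg (Pi.single i t)

theorem XR_le_QQ {l : List ℕ} (h : ∀ s ∈ l, ∃ i, HeisD4.tab.S i = s) : XR K q l ≤ QQ K q :=
  fun _ hg => RS_le_Qg h hg

/-- the roots of the special group -/
def lQ : List ℕ := [14, 15, 16, 17, 19, 20, 21, 22, 23]

theorem Qg_le : (HeisTwD4.R K).toData.Qg ≤ RS K lQ := by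
  rintro _ ⟨v, a, rfl⟩
  refine mul_mem ?_ (mem_rspan xG (S := {k | k ∈ lQ}) (by decide) a)
  show (HeisTwD4.R K).P _ v ∈ _
  generalize (Finset.univ : Finset (Fin 8)).toList = l
  induction l with
  | nil => exact one_mem _
  | cons i l ih =>
    rw [RH.P_cons]
    refine mul_mem ?_ ih
    rw [HeisTwD4.R_x]
    refine mem_rspan xG (S := {k | k ∈ lQ}) ?_ _
    show HeisD4.tab.S i ∈ lQ
    revert i
    decide

theorem QQ_le : QQ K q ≤ XR K q lQ := fun _ hg => Qg_le hg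

end Gen

section Fin

variable {K : Type u} [Field K] [Fintype K] [CharP K 2] {q : ℕ} {φ : K →+* K}

theorem xG_sq (r : ℕ) (t : K) : (xG r t : GL chevD4.Idx K) * xG r t = 1 := by
  rw [← xG_add, CharTwo.add_self_eq_zero, xG_zero]

theorem orderOf_XR {r : ℕ} {g : ↥(twistedD4 K q)} (hg : g ∈ XR K q [r]) (h1 : g ≠ 1) : orderOf g = 2 := by
  have : Fact (Nat.Prime 2) := ⟨Nat.prime_two⟩
  refine orderOf_eq_prime ?_ h1
  obtain ⟨t, ht⟩ := mem_RS_single.1 (mem_XR.1 hg)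
  apply Subtype.ext
  rw [pow_two]
  show (g : GL chevD4.Idx K) * (g : GL chevD4.Idx K) = 1
  rw [ht, xG_sq]

/-- long root elements are conjugate -/
theorem isConj_ZZ (hK : Fintype.card K = q ^ 3) (hφ : ∀ x, φ x = x ^ q) {z z' : ↥(twistedD4 K q)} (hz : z ∈ ZZ K q)
    (hz' : z' ∈ ZZ K q) (h1 : z ≠ 1) (h1' : z' ≠ 1) : IsConj z z' := by
  have hle := twisted_le_fix hK hφ
  obtain ⟨a, ha⟩ := mem_RS_single.1 (mem_XR.1 (mem_ZZ'.1 hz))
  obtain ⟨b, hb⟩ := mem_RS_single.1 (mem_XR.1 (mem_ZZ'.1 hz'))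
  have key : ∀ (w : ↥(twistedD4 K q)) (c : K), (w : GL chevD4.Idx K) = xG 23 c → w ≠ 1 → φ c = c ∧ c ≠ 0 := by
    intro w c hw hw1
    constructor
    · have h2 : sig φ (w : GL chevD4.Idx K) = w := hle w.2
      rw [hw, sig_23] at h2
      have h3 := D4Pos.lprod_inj [23] (by decide +kernel) (t := fun _ => φ c) (t' := fun _ => c) (by
        rw [lprod_cons, lprod_nil, mul_one, lprod_cons, lprod_nil, mul_one, h2]) 23 (by simp)
      exact h3
    · rintro rfl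
      apply hw1
      apply Subtype.ext
      rw [hw, xG_zero]
      rfl
  obtain ⟨ha1, ha2⟩ := key z a ha h1
  obtain ⟨hb1, hb2⟩ := key z' b hb h1'
  obtain ⟨h, hh, he⟩ := HeisTwD4.z_conj hφ ha1 hb1 ha2 hb2
  rw [HeisTwD4.R_z, HeisTwD4.R_z, ← ha, ← hb] at he
  exact isConj_iff.2 ⟨⟨h, hh⟩, Subtype.ext he⟩

theorem index_ZZ (hq : IsPrimePow q) (hK : Fintype.card K = q ^ 3) (hφ : ∀ x, φ x = x ^ q)
    {z : ↥(twistedD4 K q)} (hz : z ∈ ZZ K q) :
    (Subgroup.centralizer ({z} : Set ↥(twistedD4 K q))).index ≤ q ^ 11 := by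
  have : Finite (GL chevD4.Idx K) := inferInstance
  have h1 := index_centralizer_le (N := Subgroup.normalizer (ZZ K q : Set ↥(twistedD4 K q))) (Q := ZZ K q)
    (fun n hn x hx => (Subgroup.mem_normalizer_iff.1 hn x).1 hx) hz
  rw [card_ZZ hq.one_lt hK hφ] at h1
  calc _ ≤ _ := h1
    _ ≤ q ^ 10 * q := Nat.mul_le_mul_right _ (index_normalizer_le hq hK hφ)
    _ = q ^ 11 := by ring

variable {A : Subgroup ↥(twistedD4 K q)}

/-- a long root element of `A` in `Q` outside `Z` -/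
theorem step (hq : IsPrimePow q) (hK : Fintype.card K = q ^ 3) (hφ : ∀ x, φ x = x ^ q) (hA : IFK.Fix A)
    {t : ↥(twistedD4 K q)} (ht : t ∈ A) (ht' : t ∈ XR K q [14]) (h1 : t ≠ 1) : ZZ K q ≤ A := by
  have : Finite (GL chevD4.Idx K) := inferInstance
  by_contra hZA
  have hcz : om hφ * t * (om hφ)⁻¹ ∈ ZZ K q := mem_ZZ'.2 (om_conj hφ (by decide +kernel) ht')
  have hcj0 : IsConj t (om hφ * t * (om hφ)⁻¹) := isConj_iff.2 ⟨_, rfl⟩
  have hne : om hφ * t * (om hφ)⁻¹ ≠ 1 := fun h => h1 (conj_eq_one_iff.1 h)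
  have htZ : t ∉ ZZ K q := by
    intro h2
    obtain ⟨a, ha⟩ := mem_RS_single.1 (mem_XR.1 ht')
    obtain ⟨b, hb⟩ := mem_RS_single.1 (mem_XR.1 (mem_ZZ'.1 h2))
    have h3 := D4Pos.lprod_inj [14, 23] (by decide +kernel) (t := fun r => if r = 14 then a else 0)
      (t' := fun r => if r = 14 then 0 else b) (by
        rw [lprod_cons, lprod_cons, lprod_nil, mul_one, lprod_cons, lprod_cons, lprod_nil, mul_one]
        show xG 14 a * xG 23 0 = xG 14 0 * xG 23 b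
        rw [xG_zero, xG_zero, mul_one, one_mul, ← ha, ← hb]) 14 (by simp)
    have h4 : a = 0 := h3
    apply h1
    apply Subtype.ext
    rw [ha, h4, xG_zero]
    rfl
  have h2 := s1 hA (sp hq.one_lt hK hφ) (card_ZZ hq.one_lt hK hφ) (card_QQ hq.one_lt hK hφ) ht
    (XR_le_QQ (by decide) ht') htZ (orderOf_XR ht' h1)
    (fun z hz hz1 => hcj0.trans (isConj_ZZ hK hφ hcz hz hne hz1)) hZA
  rw [index_centralizer_conj hcj0] at h2
  have h3 := index_ZZ hq hK hφ hcz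
  have hq1 := hq.two_le
  have h4 : q ^ 4 * (Subgroup.centralizer ({om hφ * t * (om hφ)⁻¹} : Set ↥(twistedD4 K q))).index ≤ 16 * (q ^ 4) ^ 5 := by
    calc _ ≤ q ^ 4 * q ^ 11 := Nat.mul_le_mul_left _ h3
      _ = q ^ 15 := by ring
      _ ≤ q ^ 20 := Nat.pow_le_pow_right (by omega) (by norm_num)
      _ = 1 * (q ^ 4) ^ 5 := by ring
      _ ≤ _ := Nat.mul_le_mul_right _ (by norm_num)
  omega

/-- rotation -/
theorem rot (hq : IsPrimePow q) (hK : Fintype.card K = q ^ 3) (hφ : ∀ x, φ x = x ^ q) (hA : IFK.Fix A)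
    {z : ↥(twistedD4 K q)} (hz : z ∈ A) (hz' : z ∈ ZZ K q) (h1 : z ≠ 1) :
    ZZ K q ≤ MulAut.conj (om hφ)⁻¹ • A := by
  have : Finite (GL chevD4.Idx K) := inferInstance
  refine step hq hK hφ (hA.conj _) (t := (om hφ)⁻¹ * z * om hφ) ?_ (om_inv_conj hφ (by decide +kernel) (mem_ZZ'.1 hz')) ?_
  · rw [mem_conj]
    have : (om hφ)⁻¹⁻¹ * ((om hφ)⁻¹ * z * om hφ) * (om hφ)⁻¹ = z := by group
    rwa [this]
  · intro h2
    apply h1
    have h3 : z = om hφ * ((om hφ)⁻¹ * z * om hφ) * (om hφ)⁻¹ := by group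
    rw [h3, h2, mul_one, mul_inv_cancel]

theorem exists_ZZ (hq : IsPrimePow q) (hK : Fintype.card K = q ^ 3) (hφ : ∀ x, φ x = x ^ q) :
    ∃ z ∈ ZZ K q, z ≠ 1 := by
  have : Finite (GL chevD4.Idx K) := inferInstance
  have h1 := card_ZZ hq.one_lt hK hφ
  by_contra hcon
  push Not at hcon
  have h2 : ZZ K q = ⊥ := (Subgroup.eq_bot_iff_forall _).2 hcon
  rw [h2, Subgroup.card_bot] at h1
  have := hq.one_lt
  omega

theorem rot_all (hq : IsPrimePow q) (hK : Fintype.card K = q ^ 3) (hφ : ∀ x, φ x = x ^ q) (hA : IFK.Fix A)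
    (hZ : ZZ K q ≤ A) (k : ℕ) : ∀ z ∈ ZZ K q, (om hφ) ^ k * z * ((om hφ) ^ k)⁻¹ ∈ A := by
  have : Finite (GL chevD4.Idx K) := inferInstance
  induction k generalizing A with
  | zero =>
    intro z hz
    rw [pow_zero, one_mul, inv_one, mul_one]
    exact hZ hz
  | succ k ih =>
    intro z hz
    obtain ⟨z0, hz0, hz1⟩ := exists_ZZ hq hK hφ
    have h1 := rot hq hK hφ hA (hZ hz0) hz0 hz1
    have h2 := ih (hA.conj (om hφ)⁻¹) h1 z hz
    rw [mem_conj] at h2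
    have e : (om hφ)⁻¹⁻¹ * ((om hφ) ^ k * z * ((om hφ) ^ k)⁻¹) * (om hφ)⁻¹ =
        (om hφ) ^ (k + 1) * z * ((om hφ) ^ (k + 1))⁻¹ := by
      rw [pow_succ' (om hφ) k]
      group
    rwa [e] at h2

theorem rot_inv (hq : IsPrimePow q) (hK : Fintype.card K = q ^ 3) (hφ : ∀ x, φ x = x ^ q) (hA : IFK.Fix A)
    (hZ : ZZ K q ≤ A) {z : ↥(twistedD4 K q)} (hz : z ∈ ZZ K q) : (om hφ)⁻¹ * z * om hφ ∈ A := by
  have : Finite (GL chevD4.Idx K) := inferInstance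
  have h1 := rot_all hq hK hφ hA hZ (orderOf (om hφ) - 1) z hz
  have h2 : (om hφ) ^ (orderOf (om hφ) - 1) = (om hφ)⁻¹ := by
    rw [eq_inv_iff_mul_eq_one, ← pow_succ, Nat.sub_add_cancel (orderOf_pos _), pow_orderOf_eq_one]
  rwa [h2, inv_inv] at h1

/-- **one long root element is enough** -/
theorem ZZ_le (hq : IsPrimePow q) (hK : Fintype.card K = q ^ 3) (hφ : ∀ x, φ x = x ^ q) (hA : IFK.Fix A)
    {z : ↥(twistedD4 K q)} (hz : z ∈ A) (hz' : z ∈ ZZ K q) (h1 : z ≠ 1) : ZZ K q ≤ A := by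
  have : Finite (GL chevD4.Idx K) := inferInstance
  have h2 := rot hq hK hφ hA hz hz' h1
  intro w hw
  have h3 := rot_inv hq hK hφ (hA.conj (om hφ)⁻¹) h2 hw
  rw [mem_conj] at h3
  have e : (om hφ)⁻¹⁻¹ * ((om hφ)⁻¹ * w * om hφ) * (om hφ)⁻¹ = w := by group
  rwa [e] at h3

theorem X14_le (hq : IsPrimePow q) (hK : Fintype.card K = q ^ 3) (hφ : ∀ x, φ x = x ^ q) (hA : IFK.Fix A)
    (hZ : ZZ K q ≤ A) : XR K q [14] ≤ A := by
  intro t ht
  have h1 := rot_inv hq hK hφ hA hZ (mem_ZZ'.2 (om_conj hφ (l' := [23]) (by decide +kernel) ht))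
  have e : (om hφ)⁻¹ * (om hφ * t * (om hφ)⁻¹) * om hφ = t := by group
  rwa [e] at h1

theorem X9_le (hq : IsPrimePow q) (hK : Fintype.card K = q ^ 3) (hφ : ∀ x, φ x = x ^ q) (hA : IFK.Fix A)
    (hZ : ZZ K q ≤ A) : XR K q [9] ≤ A := by
  intro t ht
  have h1 : (om hφ)⁻¹ * ((om hφ)⁻¹ * t * om hφ) * om hφ ∈ ZZ K q :=
    mem_ZZ'.2 (om_inv_conj hφ (l := [22]) (by decide +kernel) (om_inv_conj hφ (l' := [22]) (by decide +kernel) ht))
  have h2 := rot_all hq hK hφ hA hZ 2 _ h1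
  have e : (om hφ) ^ 2 * ((om hφ)⁻¹ * ((om hφ)⁻¹ * t * om hφ) * om hφ) * ((om hφ) ^ 2)⁻¹ = t := by
    rw [pow_two]
    group
  rwa [e] at h2

/-- `ω X₉ ω⁻¹ ≤ A` -/
theorem X0_le (hq : IsPrimePow q) (hK : Fintype.card K = q ^ 3) (hφ : ∀ x, φ x = x ^ q) (hA : IFK.Fix A)
    (hZ : ZZ K q ≤ A) {t : ↥(twistedD4 K q)} (ht : t ∈ XR K q [9]) : om hφ * t * (om hφ)⁻¹ ∈ A := by
  have h1 : (om hφ)⁻¹ * ((om hφ)⁻¹ * t * om hφ) * om hφ ∈ ZZ K q :=
    mem_ZZ'.2 (om_inv_conj hφ (l := [22]) (by decide +kernel) (om_inv_conj hφ (l' := [22]) (by decide +kernel) ht))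
  have h2 := rot_all hq hK hφ hA hZ 3 _ h1
  have e : (om hφ) ^ 3 * ((om hφ)⁻¹ * ((om hφ)⁻¹ * t * om hφ) * om hφ) * ((om hφ) ^ 3)⁻¹ =
      om hφ * t * (om hφ)⁻¹ := by
    rw [pow_succ, pow_two]
    group
  rwa [e] at h2

end Fin

end Cfsg.Agent.H808.TD
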