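import Cfsg.Agent.H934.RowTwD4
import Cfsg.Agent.H255.IF.Key

/-!
# `³D₄(q)`: the special group of the highest root (S5719, `q` even)

`ZZ`, `QQ` : `Sp ZZ ZZ QQ`, `|ZZ| = q`, `|QQ| = q ^ 9`.
-/

set_option autoImplicit false
set_option linter.unusedSectionVars false

namespace Cfsg.Agent.H808.TD

open Cfsg.Lie Cfsg.Agent.ChevalleyStructure
open Cfsg.Agent.ChevalleyStructure.D4Fixed (sig fix mem_fix twisted_le_fix)
open Cfsg.Agent.ChevalleyStructure.D4U
open Cfsg.Agent.H934 Cfsg.Agent.H934.HeisTw Cfsg.Agent.H934.HeisRoot Cfsg.Agent.H934.HeisTwD4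
open Cfsg.Agent.H255.IFK

universe u

variable {K : Type u} [Field K] [Fintype K] {q : ℕ} {φ : K →+* K}

theorem tw (hq : 1 < q) (hK : Fintype.card K = q ^ 3) (hφ : ∀ x, φ x = x ^ q) :
    TwData (HeisTwD4.R K).toData (sig φ) (twistedD4 K q) φ (sV φ rho fun i => (eps i : K)) := by
  have hle := twisted_le_fix hK hφ
  have h3 := phi3 hK hφ
  obtain ⟨b, hb⟩ := exists_distinct hq (by norm_num : 1 < 3) hφ hK
  obtain ⟨b0, hb0⟩ := exists_tr_one (by norm_num) hb (iterate_frob_n hφ hK)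
  exact of_trace (HeisTwD4.R K) (sig φ) (twistedD4 K q) φ rho (fun i => (eps i : K)) 3
    (sig_R φ) (fun t => by rw [R_z, R_z, sig_23]) (fun g hg => hle hg) (z_mem hφ hle) (sV_three h3) hb0
    (fun i t => lift_three (HeisTwD4.R K) (lift hφ hle h3 i t))

/-- the root group of the highest root -/
noncomputable def ZZ (K : Type u) [Field K] (q : ℕ) : Subgroup ↥(twistedD4 K q) :=
  (HeisTwD4.R K).toData.Zg.subgroupOf (twistedD4 K q)

/-- the special group -/
noncomputable def QQ (K : Type u) [Field K] (q : ℕ) : Subgroup ↥(twistedD4 K q) :=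
  (HeisTwD4.R K).toData.Qg.subgroupOf (twistedD4 K q)

theorem mem_ZZ {g : ↥(twistedD4 K q)} : g ∈ ZZ K q ↔ ∃ a, (HeisTwD4.R K).z a = (g : GL chevD4.Idx K) := Iff.rfl

theorem mem_QQ {g : ↥(twistedD4 K q)} :
    g ∈ QQ K q ↔ ∃ v a, (g : GL chevD4.Idx K) = (HeisTwD4.R K).X v * (HeisTwD4.R K).z a := Iff.rfl

theorem sp (hq : 1 < q) (hK : Fintype.card K = q ^ 3) (hφ : ∀ x, φ x = x ^ q) :
    Sp (ZZ K q) (ZZ K q) (QQ K q) := by
  have T := tw hq hK hφ
  set D := (HeisTwD4.R K).toData with hD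
  refine ⟨le_rfl, ?_, ?_, ?_, ?_⟩
  · intro x hx
    exact D.Zg_le_Qg hx
  · rintro z ⟨a, ha⟩ g hg
    apply Subtype.ext
    have ha' : D.z a = (z : GL chevD4.Idx K) := ha
    show (g : GL chevD4.Idx K) * (z : GL chevD4.Idx K) = (z : GL chevD4.Idx K) * (g : GL chevD4.Idx K)
    rw [← ha']
    exact D.central (D.Qg_le hg) a
  · rintro x ⟨v, a, hx⟩ y ⟨w, b, hy⟩
    refine ⟨D.om v w, ?_⟩
    show D.z (D.om v w) = (x : GL chevD4.Idx K) * (y : GL chevD4.Idx K) * (x : GL chevD4.Idx K)⁻¹ *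
      (y : GL chevD4.Idx K)⁻¹
    change (x : GL chevD4.Idx K) = D.X v * D.z a at hx
    change (y : GL chevD4.Idx K) = D.X w * D.z b at hy
    rw [hx, hy, D.comm_eq]
  · rintro x ⟨v, a, hx⟩ hxZ z ⟨b, hz⟩
    change (x : GL chevD4.Idx K) = D.X v * D.z a at hx
    have hz' : D.z b = (z : GL chevD4.Idx K) := hz
    have hxG : D.X v * D.z a ∈ twistedD4 K q := hx ▸ x.2
    have hv : v ≠ 0 := by
      rintro rfl
      apply hxZ
      obtain ⟨c, hc⟩ := D.exists_X_zero
      exact ⟨c + a, by rw [D.z_add, ← hc]; exact hx.symm⟩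
    have hb : φ b = b := T.fix_z (by rw [hz']; exact z.2)
    obtain ⟨w, hw, hom⟩ := T.pair v (T.fix_coord hxG) hv b hb
    obtain ⟨c, hc⟩ := T.lift w hw
    refine ⟨⟨D.X w * D.z c, hc⟩, ⟨w, c, rfl⟩, ?_⟩
    apply Subtype.ext
    show (x : GL chevD4.Idx K) * (D.X w * D.z c) * (x : GL chevD4.Idx K)⁻¹ * (D.X w * D.z c)⁻¹ =
      (z : GL chevD4.Idx K)
    rw [hx, D.comm_eq, hom, hz']

theorem card_ZZ (hq : 1 < q) (hK : Fintype.card K = q ^ 3) (hφ : ∀ x, φ x = x ^ q) : Nat.card (ZZ K q) = q := by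
  have T := tw hq hK hφ
  set D := (HeisTwD4.R K).toData with hD
  refine Eq.trans (Eq.symm ?_) (card_fix_field hq hK hφ)
  refine Nat.card_congr (Equiv.ofBijective
    (fun a : {a : K // φ a = a} => (⟨⟨D.z a, T.z_mem a a.2⟩, ⟨a, rfl⟩⟩ : ZZ K q)) ⟨?_, ?_⟩)
  · intro a b h
    apply Subtype.ext
    exact z_injective D (congrArg (fun w : ZZ K q => ((w : ↥(twistedD4 K q)) : GL chevD4.Idx K)) h)
  · rintro ⟨⟨g, hg⟩, ⟨a, ha⟩⟩
    have ha' : D.z a = g := ha
    refine ⟨⟨a, T.fix_z (by rw [ha']; exact hg)⟩, ?_⟩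
    apply Subtype.ext
    apply Subtype.ext
    exact ha'

theorem card_fixV (hq : 1 < q) (hK : Fintype.card K = q ^ 3) (hφ : ∀ x, φ x = x ^ q) :
    Nat.card {v : Fin 8 → K // sV φ rho (fun i => (eps i : K)) v = v} = q ^ 8 := by
  have h3 := phi3 hK hφ
  apply le_antisymm
  · have h1 : Nat.card (({a : K // φ a = a} × K) × (K × {a : K // φ a = a})) = q ^ 8 := by
      rw [Nat.card_prod, Nat.card_prod, Nat.card_prod, card_fix_field hq hK hφ, Nat.card_eq_fintype_card, hK]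
      ring
    rw [← h1]
    have key : ∀ v : Fin 8 → K, sV φ rho (fun i => (eps i : K)) v = v → ∀ i, v (rho i) = (eps i : K) * φ (v i) := by
      intro v hv i
      conv_lhs => rw [← hv]
      rw [sV_apply, Equiv.symm_apply_apply]
    refine Nat.card_le_card_of_injective (fun v : {v : Fin 8 → K // sV φ rho (fun i => (eps i : K)) v = v} =>
      (((⟨v.1 0, ?_⟩ : {a : K // φ a = a}), v.1 1), (v.1 3, (⟨v.1 7, ?_⟩ : {a : K // φ a = a})))) ?_
    · have h := key v.1 v.2 0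
      have e1 : rho 0 = 0 := rfl
      have e2 : eps 0 = 1 := rfl
      rw [e1, e2, Int.cast_one, one_mul] at h
      exact h.symm
    · have h := key v.1 v.2 7
      have e1 : rho 7 = 7 := rfl
      have e2 : eps 7 = 1 := rfl
      rw [e1, e2, Int.cast_one, one_mul] at h
      exact h.symm
    · intro v w h
      have h01 := congrArg Prod.fst h
      have h23 := congrArg Prod.snd h
      have h0 : v.1 0 = w.1 0 := congrArg Subtype.val (congrArg Prod.fst h01)
      have h1 : v.1 1 = w.1 1 := congrArg Prod.snd h01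
      have h3 : v.1 3 = w.1 3 := congrArg Prod.fst h23
      have h7 : v.1 7 = w.1 7 := congrArg Subtype.val (congrArg Prod.snd h23)
      have step : ∀ i, v.1 i = w.1 i → v.1 (rho i) = w.1 (rho i) := by
        intro i hi
        rw [key v.1 v.2, key w.1 w.2, hi]
      have h4 : v.1 4 = w.1 4 := step 1 h1
      have h2 : v.1 2 = w.1 2 := step 4 h4
      have h5 : v.1 5 = w.1 5 := step 3 h3
      have h6 : v.1 6 = w.1 6 := step 5 h5
      apply Subtype.ext
      funext i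
      fin_cases i
      · exact h0
      · exact h1
      · exact h2
      · exact h3
      · exact h4
      · exact h5
      · exact h6
      · exact h7
  · obtain ⟨b, hb⟩ := exists_distinct hq (by norm_num : 1 < 3) hφ hK
    have h4 := card_le_pow (M := Fin 8 → K) (by norm_num) hb (s := sV φ rho (fun i => (eps i : K)))
      (sV_smul φ rho _) (sV_three h3)
    rw [Nat.card_fun, Nat.card_eq_fintype_card (α := K), Nat.card_eq_fintype_card (α := Fin 8), hK, ← pow_mul,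
      mul_comm, pow_mul, Fintype.card_fin] at h4
    exact le_of_pow_le_pow_left₀ (by norm_num) (by omega) h4

theorem card_QQ (hq : 1 < q) (hK : Fintype.card K = q ^ 3) (hφ : ∀ x, φ x = x ^ q) :
    Nat.card (QQ K q) = q * (q ^ 4) ^ 2 := by
  have T := tw hq hK hφ
  set D := (HeisTwD4.R K).toData with hD
  have h1 : Nat.card ({v : Fin 8 → K // sV φ rho (fun i => (eps i : K)) v = v} × {a : K // φ a = a}) =
      q * (q ^ 4) ^ 2 := by
    rw [Nat.card_prod, card_fixV hq hK hφ, card_fix_field hq hK hφ]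
    ring
  refine Eq.trans (Eq.symm ?_) h1
  choose c hc using fun v : {v : Fin 8 → K // sV φ rho (fun i => (eps i : K)) v = v} => T.lift v v.2
  refine Nat.card_congr (Equiv.ofBijective
    (fun p : {v : Fin 8 → K // sV φ rho (fun i => (eps i : K)) v = v} × {a : K // φ a = a} =>
      (⟨⟨D.X p.1 * D.z (c p.1) * D.z p.2, mul_mem (hc p.1) (T.z_mem _ p.2.2)⟩,
        ⟨p.1, c p.1 + p.2, by
          show D.X p.1 * D.z (c p.1) * D.z p.2 = D.X p.1 * D.z (c p.1 + p.2)
          rw [D.z_add, mul_assoc]⟩⟩ : QQ K q)) ⟨?_, ?_⟩)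
  · rintro ⟨v, a⟩ ⟨w, b⟩ h
    have h1 : D.X v * D.z (c v) * D.z a = D.X w * D.z (c w) * D.z b :=
      congrArg (fun w : QQ K q => ((w : ↥(twistedD4 K q)) : GL chevD4.Idx K)) h
    rw [mul_assoc, mul_assoc, ← D.z_add, ← D.z_add] at h1
    obtain ⟨h2, h3⟩ := D.eq_of_mul_eq h1
    have h4 : v = w := Subtype.ext h2
    subst h4
    have h5 : a = b := Subtype.ext (add_left_cancel h3)
    rw [h5]
  · rintro ⟨⟨g, hg⟩, ⟨v, b, hv⟩⟩
    have hv' : g = D.X v * D.z b := hv
    have hvf : sV φ rho (fun i => (eps i : K)) v = v := T.fix_coord (by rw [← hv']; exact hg)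
    have h2 : D.z (b - c ⟨v, hvf⟩) ∈ twistedD4 K q := by
      have h3 := mul_mem (inv_mem (hc ⟨v, hvf⟩)) (hv' ▸ hg)
      have h4 : (D.X v * D.z (c ⟨v, hvf⟩))⁻¹ * (D.X v * D.z b) = D.z (b - c ⟨v, hvf⟩) := by
        rw [sub_eq_add_neg, D.z_add, D.z_comm b, D.z_neg]
        group
      rw [← h4]
      exact h3
    refine ⟨⟨⟨v, hvf⟩, ⟨b - c ⟨v, hvf⟩, T.fix_z h2⟩⟩, ?_⟩
    apply Subtype.ext
    apply Subtype.ext
    show D.X v * D.z (c ⟨v, hvf⟩) * D.z (b - c ⟨v, hvf⟩) = g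
    rw [mul_assoc, ← D.z_add, add_sub_cancel, hv']

end Cfsg.Agent.H808.TD
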